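import Mathlib
import Cfsg.Agent.S0750
import Cfsg.Agent.Lib.Helper14.Forms
import Cfsg.Agent.Lib.Helper45.OrthZeros
import Cfsg.Agent.Lib.Helper40.Elusive
import Cfsg.Agent.Lib.Helper40.OTS.Defs

/-!
# OTS (S5972), package [COUNT]

The number of totally singular `m`-spaces of the odd-dimensional quadratic form divides
`∏_{j<m} (q^{2(d-j)} - 1)`.  Route: count linearly independent totally singular tuples; the
fibre of "drop the last vector" is computed on the standard tuple and transported by Witt's lemma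
(`Cfsg.Agent.S0750.result`).
-/

set_option autoImplicit false

namespace Cfsg.Agent.Lib.Helper67.OTS

open Module

universe u

section general

variable {F : Type u} [Field F] {V : Type*} [AddCommGroup V] [Module F V]

/-- linearly independent tuples spanning a totally singular subspace -/
def tsTuples (F : Type u) [Field F] {V : Type*} [AddCommGroup V] [Module F V] (Q : V → F)
    (k : ℕ) : Set (Fin k → V) :=
  {x | LinearIndependent F x ∧ ∀ w ∈ Submodule.span F (Set.range x), Q w = 0}

theorem polar_span_zero (Q : QuadraticForm F V) {k : ℕ} (x : Fin k → V) (v : V)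
    (h : ∀ i, QuadraticMap.polar Q (x i) v = 0) :
    ∀ u ∈ Submodule.span F (Set.range x), QuadraticMap.polar Q u v = 0 := by
  intro u hu
  induction hu using Submodule.span_induction with
  | mem a ha =>
    obtain ⟨i, rfl⟩ := ha
    exact h i
  | zero => exact QuadraticMap.polar_zero_left _ _
  | add a a' _ _ h1 h2 => rw [QuadraticMap.polar_add_left, h1, h2, add_zero]
  | smul c a _ h1 => rw [QuadraticMap.polar_smul_left, h1, smul_zero]

theorem ts_sigma_ext_aux {α W : Type*} {P : α → Prop} {R : α → W → Prop} (a a' : α)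
    (ha : P a) (ha' : P a') (v v' : W) (hv : R a v) (hv' : R a' v') (h1 : a = a')
    (h2 : v = v') :
    (⟨⟨a, ha⟩, ⟨v, hv⟩⟩ : Σ x : {x // P x}, {v : W // R x.1 v}) = ⟨⟨a', ha'⟩, ⟨v', hv'⟩⟩ := by
  subst h1
  subst h2
  rfl

/-- totally singular `(k+1)`-tuples as extensions of totally singular `k`-tuples. -/
def tsSuccEquiv (Q : QuadraticForm F V) (k : ℕ) :
    ↥(tsTuples F (⇑Q) (k + 1)) ≃ Σ x : ↥(tsTuples F (⇑Q) k),
      {v : V // Q v = 0 ∧ (∀ i, QuadraticMap.polar Q (x.1 i) v = 0) ∧
        v ∉ Submodule.span F (Set.range x.1)} where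
  toFun z := ⟨⟨Fin.init z.1, by
      have h := z.2.1
      rw [← Fin.snoc_init_self z.1, linearIndependent_finSnoc] at h
      refine ⟨h.1, fun w hw => z.2.2 w ?_⟩
      refine Submodule.span_mono ?_ hw
      rintro _ ⟨i, rfl⟩
      exact ⟨Fin.castSucc i, rfl⟩⟩, ⟨z.1 (Fin.last k), by
      have h := z.2.1
      rw [← Fin.snoc_init_self z.1, linearIndependent_finSnoc] at h
      have hmem : ∀ i, z.1 i ∈ Submodule.span F (Set.range z.1) :=
        fun i => Submodule.subset_span ⟨i, rfl⟩
      refine ⟨z.2.2 _ (hmem _), fun i => ?_, h.2⟩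
      show QuadraticMap.polar Q (z.1 (Fin.castSucc i)) (z.1 (Fin.last k)) = 0
      rw [QuadraticMap.polar, z.2.2 _ (Submodule.add_mem _ (hmem _) (hmem _)),
        z.2.2 _ (hmem _), z.2.2 _ (hmem _)]
      simp⟩⟩
  invFun p := ⟨Fin.snoc p.1.1 p.2.1, by
      refine ⟨linearIndependent_finSnoc.mpr ⟨p.1.2.1, p.2.2.2.2⟩, ?_⟩
      intro w hw
      rw [Fin.range_snoc, Submodule.mem_span_insert] at hw
      obtain ⟨c, u, hu, rfl⟩ := hw
      have h1 : Q (c • p.2.1 + u) = Q (c • p.2.1) + Q u + QuadraticMap.polar Q (c • p.2.1) u := by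
        rw [QuadraticMap.polar]
        ring
      rw [h1, QuadraticMap.map_smul, p.2.2.1, p.1.2.2 u hu, QuadraticMap.polar_smul_left,
        QuadraticMap.polar_comm, polar_span_zero Q p.1.1 p.2.1 p.2.2.2.1 u hu]
      simp⟩
  left_inv z := by
    apply Subtype.ext
    exact Fin.snoc_init_self z.1
  right_inv p := by
    obtain ⟨⟨x, hx⟩, ⟨v, hv⟩⟩ := p
    have h1 : Fin.init (Fin.snoc x v : Fin (k + 1) → V) = x := Fin.init_snoc _ _
    have h2 : (Fin.snoc x v : Fin (k + 1) → V) (Fin.last k) = v := Fin.snoc_last _ _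
    exact ts_sigma_ext_aux (P := fun x => x ∈ tsTuples F (⇑Q) k)
      (R := fun x v => Q v = 0 ∧ (∀ i, QuadraticMap.polar Q (x i) v = 0) ∧
        v ∉ Submodule.span F (Set.range x)) _ _ _ _ _ _ _ _ h1 h2

end general

section std

variable {F : Type u} [Field F]

/-- the standard totally singular tuple -/
def stdTuple (F : Type u) [Field F] (k e : ℕ) :
    Fin k → (Unit ⊕ (Fin (k + e) ⊕ Fin (k + e)) → F) :=
  fun i => Pi.single (Sum.inr (Sum.inl (Fin.castAdd e i))) 1

theorem stdTuple_mem (k e : ℕ) :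
    stdTuple F k e ∈ tsTuples F (Cfsg.quadFormOdd (k + e) F) k := by
  classical
  constructor
  · have h := (Pi.basisFun F (Unit ⊕ (Fin (k + e) ⊕ Fin (k + e)))).linearIndependent.comp
      (fun i : Fin k => (Sum.inr (Sum.inl (Fin.castAdd e i)) : Unit ⊕ (Fin (k + e) ⊕ Fin (k + e))))
      (fun i j h => by
        simpa using h)
    have h2 : stdTuple F k e = (⇑(Pi.basisFun F (Unit ⊕ (Fin (k + e) ⊕ Fin (k + e)))) ∘
        fun i : Fin k => (Sum.inr (Sum.inl (Fin.castAdd e i)) :
          Unit ⊕ (Fin (k + e) ⊕ Fin (k + e)))) := by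
      funext i
      simp [stdTuple]
    rw [h2]
    exact h
  · intro w hw
    have key : w (Sum.inl ()) = 0 ∧ ∀ j, w (Sum.inr (Sum.inr j)) = 0 := by
      induction hw using Submodule.span_induction with
      | mem a ha =>
        obtain ⟨i, rfl⟩ := ha
        simp [stdTuple]
      | zero => simp
      | add a a' _ _ h1 h2 => simp [h1.1, h1.2, h2.1, h2.2]
      | smul c a _ h1 => simp [h1.1, h1.2]
    simp [Cfsg.quadFormOdd, key.1, key.2]

/-- zeros of the form orthogonal to the standard tuple -/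
theorem card_std (F : Type u) [Field F] [Fintype F] (k e : ℕ) :
    Nat.card {v : Unit ⊕ (Fin (k + e) ⊕ Fin (k + e)) → F //
        Cfsg.quadFormOdd (k + e) F v = 0 ∧
          ∀ i : Fin k, v (Sum.inr (Sum.inr (Fin.castAdd e i))) = 0} =
      Fintype.card F ^ k * Fintype.card F ^ (2 * e) := by
  classical
  have hQ : ∀ v : Unit ⊕ (Fin (k + e) ⊕ Fin (k + e)) → F,
      (∀ i : Fin k, v (Sum.inr (Sum.inr (Fin.castAdd e i))) = 0) →
      Cfsg.quadFormOdd (k + e) F v =
        v (Sum.inl ()) ^ 2 + ∑ j : Fin e, v (Sum.inr (Sum.inl (Fin.natAdd k j))) *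
          v (Sum.inr (Sum.inr (Fin.natAdd k j))) := by
    intro v hv
    rw [Cfsg.quadFormOdd, Fin.sum_univ_add]
    simp [hv]
  have e1 : {v : Unit ⊕ (Fin (k + e) ⊕ Fin (k + e)) → F //
        Cfsg.quadFormOdd (k + e) F v = 0 ∧
          ∀ i : Fin k, v (Sum.inr (Sum.inr (Fin.castAdd e i))) = 0} ≃
      (Fin k → F) × {w : Unit ⊕ (Fin e ⊕ Fin e) → F // Cfsg.quadFormOdd e F w = 0} :=
    { toFun := fun v => (fun i => v.1 (Sum.inr (Sum.inl (Fin.castAdd e i))),
        ⟨Sum.elim (fun _ => v.1 (Sum.inl ()))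
          (Sum.elim (fun j => v.1 (Sum.inr (Sum.inl (Fin.natAdd k j))))
            (fun j => v.1 (Sum.inr (Sum.inr (Fin.natAdd k j))))), by
          have h := v.2.1
          rw [hQ v.1 v.2.2] at h
          simpa [Cfsg.quadFormOdd] using h⟩)
      invFun := fun p => ⟨Sum.elim (fun _ => p.2.1 (Sum.inl ()))
          (Sum.elim (Fin.addCases p.1 (fun j => p.2.1 (Sum.inr (Sum.inl j))))
            (Fin.addCases (fun _ => 0) (fun j => p.2.1 (Sum.inr (Sum.inr j))))), by
          have hz : ∀ i : Fin k, (Sum.elim (fun _ => p.2.1 (Sum.inl ()))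
              (Sum.elim (Fin.addCases p.1 (fun j => p.2.1 (Sum.inr (Sum.inl j))))
                (Fin.addCases (fun _ => 0) (fun j => p.2.1 (Sum.inr (Sum.inr j))))) :
                  Unit ⊕ (Fin (k + e) ⊕ Fin (k + e)) → F)
              (Sum.inr (Sum.inr (Fin.castAdd e i))) = 0 := by
            intro i
            simp
          refine ⟨?_, hz⟩
          rw [hQ _ hz]
          have h := p.2.2
          simpa [Cfsg.quadFormOdd] using h⟩
      left_inv := fun v => by
        apply Subtype.ext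
        funext t
        rcases t with ⟨⟩ | t | t
        · rfl
        · refine Fin.addCases (fun i => ?_) (fun j => ?_) t <;> simp
        · refine Fin.addCases (fun i => ?_) (fun j => ?_) t
          · simp [v.2.2 i]
          · simp
      right_inv := fun p => by
        refine Prod.ext ?_ (Subtype.ext ?_)
        · funext i
          simp
        · funext t
          rcases t with ⟨⟩ | t | t <;> simp }
  rw [Nat.card_congr e1, Nat.card_prod, Nat.card_fun, Nat.card_eq_fintype_card,
    Nat.card_eq_fintype_card, Fintype.card_fin, Cfsg.Agent.Lib.Helper45.card_zeros_odd rfl e]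

end std

section main

open Cfsg.Agent.Lib.Helper14

variable {F : Type u} [Field F] [Fintype F]

/-- Witt: the standard tuple is carried to any totally singular tuple by an isometry. -/
theorem exists_isometry (h2 : (2 : F) ≠ 0) (k e : ℕ)
    (x : Fin k → (Unit ⊕ (Fin (k + e) ⊕ Fin (k + e)) → F))
    (hx : x ∈ tsTuples F (⇑(oddQF (k + e) F)) k) :
    ∃ g : (Unit ⊕ (Fin (k + e) ⊕ Fin (k + e)) → F) ≃ₗ[F]
        (Unit ⊕ (Fin (k + e) ⊕ Fin (k + e)) → F),
      (∀ v, oddQF (k + e) F (g v) = oddQF (k + e) F v) ∧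
      ∀ i, g (stdTuple F k e i) = x i := by
  have hx0 : stdTuple F k e ∈ tsTuples F (⇑(oddQF (k + e) F)) k := by
    rw [oddQF_coe]
    exact stdTuple_mem k e
  obtain ⟨g, hg, hgφ⟩ := Cfsg.Agent.S0750.result (oddQF (k + e) F)
    (oddQF_nondegenerate (k + e) F h2) _ _
    ((Basis.span hx0.1).equiv (Basis.span hx.1) (Equiv.refl _))
    (fun w => by
      rw [hx.2 _ (((Basis.span hx0.1).equiv (Basis.span hx.1) (Equiv.refl _)) w).2,
        hx0.2 _ w.2])
  refine ⟨g, hg, fun i => ?_⟩
  have h1 := hgφ (Basis.span hx0.1 i)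
  rw [Basis.equiv_apply] at h1
  simpa [Basis.span_apply] using h1

theorem card_fiber (h2 : (2 : F) ≠ 0) (d k : ℕ) (hk : k ≤ d)
    (x : Fin k → (Unit ⊕ (Fin d ⊕ Fin d) → F))
    (hx : x ∈ tsTuples F (⇑(oddQF d F)) k) :
    Nat.card {v : Unit ⊕ (Fin d ⊕ Fin d) → F // oddQF d F v = 0 ∧
        (∀ i, QuadraticMap.polar (oddQF d F) (x i) v = 0) ∧
        v ∉ Submodule.span F (Set.range x)} =
      Fintype.card F ^ (2 * d - k) - Fintype.card F ^ k := by
  classical
  obtain ⟨e, rfl⟩ := Nat.exists_eq_add_of_le hk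
  obtain ⟨g, hg, hgx⟩ := exists_isometry h2 k e x hx
  have hA : Nat.card {v : Unit ⊕ (Fin (k + e) ⊕ Fin (k + e)) → F // oddQF (k + e) F v = 0 ∧
        (∀ i, QuadraticMap.polar (oddQF (k + e) F) (x i) v = 0)} =
      Fintype.card F ^ (2 * (k + e) - k) := by
    have e1 : {v : Unit ⊕ (Fin (k + e) ⊕ Fin (k + e)) → F //
        Cfsg.quadFormOdd (k + e) F v = 0 ∧
          ∀ i : Fin k, v (Sum.inr (Sum.inr (Fin.castAdd e i))) = 0} ≃
        {v : Unit ⊕ (Fin (k + e) ⊕ Fin (k + e)) → F // oddQF (k + e) F v = 0 ∧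
        (∀ i, QuadraticMap.polar (oddQF (k + e) F) (x i) v = 0)} :=
      Equiv.subtypeEquiv g.toEquiv (fun v => by
        have hpol : ∀ i, QuadraticMap.polar (oddQF (k + e) F) (x i) (g v) =
            v (Sum.inr (Sum.inr (Fin.castAdd e i))) := by
          intro i
          rw [← hgx i, QuadraticMap.polar, ← map_add, hg, hg, hg, ← QuadraticMap.polar,
            oddQF_coe]
          exact odd_polar_inl (k + e) F _ v
        have hq : oddQF (k + e) F (g v) = Cfsg.quadFormOdd (k + e) F v := by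
          rw [hg, oddQF_coe]
        show _ ↔ oddQF (k + e) F (g v) = 0 ∧
          ∀ i, QuadraticMap.polar (oddQF (k + e) F) (x i) (g v) = 0
        simp only [hq, hpol])
    rw [← Nat.card_congr e1, card_std, ← pow_add]
    congr 1
    omega
  have hle : ((Submodule.span F (Set.range x) : Submodule F _) : Set _) ⊆
      {v | oddQF (k + e) F v = 0 ∧
        ∀ i, QuadraticMap.polar (oddQF (k + e) F) (x i) v = 0} := by
    intro v hv
    have hv' : v ∈ Submodule.span F (Set.range x) := hv
    refine ⟨hx.2 v hv', fun i => ?_⟩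
    have hi : x i ∈ Submodule.span F (Set.range x) := Submodule.subset_span ⟨i, rfl⟩
    rw [QuadraticMap.polar, hx.2 _ (Submodule.add_mem _ hi hv'), hx.2 _ hi, hx.2 _ hv']
    simp
  have hfU : finrank F (Submodule.span F (Set.range x)) = k := by
    rw [finrank_span_eq_card hx.1, Fintype.card_fin]
  have hcU : Nat.card (Submodule.span F (Set.range x)) = Fintype.card F ^ k := by
    rw [Nat.card_eq_fintype_card, Module.card_eq_pow_finrank (K := F), hfU]
  have hset : {v | oddQF (k + e) F v = 0 ∧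
        (∀ i, QuadraticMap.polar (oddQF (k + e) F) (x i) v = 0) ∧
        v ∉ Submodule.span F (Set.range x)} =
      {v | oddQF (k + e) F v = 0 ∧
        ∀ i, QuadraticMap.polar (oddQF (k + e) F) (x i) v = 0} \
        ((Submodule.span F (Set.range x) : Submodule F _) : Set _) := by
    ext v
    simp only [Set.mem_ofPred_eq, Set.mem_sdiff, SetLike.mem_coe, and_assoc]
  have h1 : Nat.card {v : Unit ⊕ (Fin (k + e) ⊕ Fin (k + e)) → F // oddQF (k + e) F v = 0 ∧
        (∀ i, QuadraticMap.polar (oddQF (k + e) F) (x i) v = 0) ∧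
        v ∉ Submodule.span F (Set.range x)} =
      ({v | oddQF (k + e) F v = 0 ∧
        (∀ i, QuadraticMap.polar (oddQF (k + e) F) (x i) v = 0) ∧
        v ∉ Submodule.span F (Set.range x)}).ncard := rfl
  rw [h1, hset, Set.ncard_sdiff hle, ← hcU, ← hA]
  rfl

theorem card_tsTuples (h2 : (2 : F) ≠ 0) (d k : ℕ) (hk : k ≤ d) :
    Nat.card ↥(tsTuples F (⇑(oddQF d F)) k) =
      ∏ i ∈ Finset.range k, (Fintype.card F ^ (2 * d - i) - Fintype.card F ^ i) := by
  classical
  induction k with
  | zero =>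
    rw [Finset.prod_range_zero]
    have : Unique ↥(tsTuples F (⇑(oddQF d F)) 0) :=
      { default := ⟨fun i => i.elim0, linearIndependent_empty_type, fun w hw => by
          have hw0 : w = 0 := by simpa using hw
          rw [hw0, map_zero]⟩
        uniq := fun z => Subtype.ext (funext fun i => i.elim0) }
    exact Nat.card_unique
  | succ k ih =>
    have := Fintype.ofFinite ↥(tsTuples F (⇑(oddQF d F)) k)
    rw [Nat.card_congr (tsSuccEquiv (oddQF d F) k), Nat.card_sigma, Finset.prod_range_succ,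
      ← ih (by omega)]
    rw [Finset.sum_congr rfl (fun x _ => card_fiber h2 d k (by omega) x.1 x.2),
      Finset.sum_const, Finset.card_univ, smul_eq_mul, Nat.card_eq_fintype_card]

/-- Counting totally singular subspaces through their ordered bases. -/
theorem card_ts_mul (h2 : (2 : F) ≠ 0) (d m : ℕ) (hm : m ≤ d) :
    Nat.card {W : Submodule F (Unit ⊕ (Fin d ⊕ Fin d) → F) //
        finrank F W = m ∧ ∀ w ∈ W, oddQF d F w = 0} *
      ∏ j : Fin m, (Fintype.card F ^ m - Fintype.card F ^ j.val) =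
    ∏ i ∈ Finset.range m, (Fintype.card F ^ (2 * d - i) - Fintype.card F ^ i) := by
  classical
  rw [← card_tsTuples h2 d m hm]
  let φ : ↥(tsTuples F (⇑(oddQF d F)) m) → {W : Submodule F (Unit ⊕ (Fin d ⊕ Fin d) → F) //
      finrank F W = m ∧ ∀ w ∈ W, oddQF d F w = 0} :=
    fun s => ⟨Submodule.span F (Set.range s.1), by
      rw [finrank_span_eq_card s.2.1, Fintype.card_fin], s.2.2⟩
  rw [← Nat.card_congr (Equiv.sigmaFiberEquiv φ), Nat.card_sigma]
  have h3 : ∀ W : {W : Submodule F (Unit ⊕ (Fin d ⊕ Fin d) → F) //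
      finrank F W = m ∧ ∀ w ∈ W, oddQF d F w = 0},
      Nat.card {s : ↥(tsTuples F (⇑(oddQF d F)) m) // φ s = W} =
        ∏ j : Fin m, (Fintype.card F ^ m - Fintype.card F ^ j.val) := by
    intro W
    rw [← Cfsg.Agent.Lib.Helper40.Elusive.card_fib m W.1 W.2.1]
    apply Nat.card_congr
    exact
      { toFun := fun s => ⟨⟨s.1.1, s.1.2.1⟩, congrArg Subtype.val s.2⟩
        invFun := fun s => ⟨⟨s.1.1, s.1.2, fun w hw => W.2.2 w (s.2.le hw)⟩, Subtype.ext s.2⟩
        left_inv := fun s => rfl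
        right_inv := fun s => rfl }
  rw [Finset.sum_congr rfl (fun W _ => h3 W), Finset.sum_const, Finset.card_univ,
    smul_eq_mul, Nat.card_eq_fintype_card]

/-- **[COUNT]** -/
theorem pkgCount : Cfsg.Agent.Lib.Helper40.OTS.PkgCount.{u} := by
  intro F _ _ d m hodd hm
  have h2 : (2 : F) ≠ 0 := Ring.two_ne_zero (fun hc => by
    have h := FiniteField.even_card_of_char_two hc
    obtain ⟨t, ht⟩ := hodd
    omega)
  have hq : 2 ≤ Fintype.card F := Fintype.one_lt_card
  have h1 := card_ts_mul (F := F) h2 d m hm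
  rw [oddQF_coe] at h1
  rw [Cfsg.Agent.Lib.Helper40.Elusive.prod_li _ _ _ le_rfl] at h1
  have h3 : ∏ i ∈ Finset.range m, (Fintype.card F ^ (2 * d - i) - Fintype.card F ^ i) =
      (∏ j ∈ Finset.range m, Fintype.card F ^ j) *
        ∏ j ∈ Finset.range m, (Fintype.card F ^ (2 * (d - j)) - 1) := by
    rw [← Finset.prod_mul_distrib]
    apply Finset.prod_congr rfl
    intro j hj
    have hj' := Finset.mem_range.1 hj
    rw [Nat.mul_sub, mul_one, ← pow_add]
    congr 2
    omega
  rw [h3, ← mul_assoc, mul_comm (Nat.card _), mul_assoc] at h1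
  have h4 : 0 < ∏ j ∈ Finset.range m, Fintype.card F ^ j :=
    Finset.prod_pos (fun j _ => Nat.pow_pos (by omega))
  exact Dvd.intro _ (Nat.eq_of_mul_eq_mul_left h4 h1)

end main

end Cfsg.Agent.Lib.Helper67.OTS
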