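import Mathlib
import Cfsg.Agent.Lib.Helper67.OTS.Count
import Cfsg.Agent.Lib.Helper44.Char2Forms

/-!
# Totally singular subspaces of the minus-type quadratic form: counting (for S5987)

With `n` the Witt index (the form is `quadFormMinus n F a b` in dimension `2n + 2`):
`N_m * ∏_{j<m} (q^(m-j) - 1) = ∏_{j<m} (q^(n-j+1) + 1) * (q^(n-j) - 1)` in every characteristic,
the characteristic does not divide `N_m`, and a prime dividing `N_m` divides some
`q^(n-j+1) + 1` or `q^(n-j) - 1`, `j < m`.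
-/

set_option autoImplicit false

namespace Cfsg.Agent.Lib.Helper67.OTS

open Module Cfsg.Agent.Lib.Helper14

universe u

section stdMinus

variable {F : Type u} [Field F]

/-- the standard totally singular tuple of the minus form -/
def stdTupleM (F : Type u) [Field F] (k e : ℕ) :
    Fin k → ((Fin (k + e) ⊕ Fin (k + e)) ⊕ Fin 2 → F) :=
  fun i => Pi.single (Sum.inl (Sum.inl (Fin.castAdd e i))) 1

theorem stdTupleM_mem (k e : ℕ) (a b : F) :
    stdTupleM F k e ∈ tsTuples F (Cfsg.quadFormMinus (k + e) F a b) k := by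
  classical
  constructor
  · have h := (Pi.basisFun F ((Fin (k + e) ⊕ Fin (k + e)) ⊕ Fin 2)).linearIndependent.comp
      (fun i : Fin k => (Sum.inl (Sum.inl (Fin.castAdd e i)) :
        (Fin (k + e) ⊕ Fin (k + e)) ⊕ Fin 2))
      (fun i j h => by
        simpa using h)
    have h2 : stdTupleM F k e = (⇑(Pi.basisFun F ((Fin (k + e) ⊕ Fin (k + e)) ⊕ Fin 2)) ∘
        fun i : Fin k => (Sum.inl (Sum.inl (Fin.castAdd e i)) :
          (Fin (k + e) ⊕ Fin (k + e)) ⊕ Fin 2)) := by
      funext i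
      simp [stdTupleM]
    rw [h2]
    exact h
  · intro w hw
    have key : (∀ j, w (Sum.inl (Sum.inr j)) = 0) ∧ ∀ t, w (Sum.inr t) = 0 := by
      induction hw using Submodule.span_induction with
      | mem x hx =>
        obtain ⟨i, rfl⟩ := hx
        simp [stdTupleM]
      | zero => simp
      | add x x' _ _ h1 h2 => simp [h1.1, h1.2, h2.1, h2.2]
      | smul c x _ h1 => simp [h1.1, h1.2]
    simp [Cfsg.quadFormMinus, key.1, key.2]

/-- zeros of the minus form orthogonal to the standard tuple -/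
theorem card_stdM (F : Type u) [Field F] [Fintype F] (k e : ℕ) (a b : F) :
    Nat.card {v : (Fin (k + e) ⊕ Fin (k + e)) ⊕ Fin 2 → F //
        Cfsg.quadFormMinus (k + e) F a b v = 0 ∧
          ∀ i : Fin k, v (Sum.inl (Sum.inr (Fin.castAdd e i))) = 0} =
      Fintype.card F ^ k *
        Nat.card {w : (Fin e ⊕ Fin e) ⊕ Fin 2 → F // Cfsg.quadFormMinus e F a b w = 0} := by
  classical
  have hQ : ∀ v : (Fin (k + e) ⊕ Fin (k + e)) ⊕ Fin 2 → F,
      (∀ i : Fin k, v (Sum.inl (Sum.inr (Fin.castAdd e i))) = 0) →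
      Cfsg.quadFormMinus (k + e) F a b v =
        (∑ j : Fin e, v (Sum.inl (Sum.inl (Fin.natAdd k j))) *
          v (Sum.inl (Sum.inr (Fin.natAdd k j)))) +
        (v (Sum.inr 0) ^ 2 + a * v (Sum.inr 0) * v (Sum.inr 1) + b * v (Sum.inr 1) ^ 2) := by
    intro v hv
    rw [Cfsg.quadFormMinus, Fin.sum_univ_add]
    simp [hv]
  have e1 : {v : (Fin (k + e) ⊕ Fin (k + e)) ⊕ Fin 2 → F //
        Cfsg.quadFormMinus (k + e) F a b v = 0 ∧
          ∀ i : Fin k, v (Sum.inl (Sum.inr (Fin.castAdd e i))) = 0} ≃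
      (Fin k → F) ×
        {w : (Fin e ⊕ Fin e) ⊕ Fin 2 → F // Cfsg.quadFormMinus e F a b w = 0} :=
    { toFun := fun v => (fun i => v.1 (Sum.inl (Sum.inl (Fin.castAdd e i))),
        ⟨Sum.elim (Sum.elim (fun j => v.1 (Sum.inl (Sum.inl (Fin.natAdd k j))))
            (fun j => v.1 (Sum.inl (Sum.inr (Fin.natAdd k j))))) (fun t => v.1 (Sum.inr t)), by
          have h := v.2.1
          rw [hQ v.1 v.2.2] at h
          simpa [Cfsg.quadFormMinus] using h⟩)
      invFun := fun p => ⟨Sum.elim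
            (Sum.elim (Fin.addCases p.1 (fun j => p.2.1 (Sum.inl (Sum.inl j))))
              (Fin.addCases (fun _ => 0) (fun j => p.2.1 (Sum.inl (Sum.inr j)))))
            (fun t => p.2.1 (Sum.inr t)), by
          have hz : ∀ i : Fin k, (Sum.elim
              (Sum.elim (Fin.addCases p.1 (fun j => p.2.1 (Sum.inl (Sum.inl j))))
                (Fin.addCases (fun _ => 0) (fun j => p.2.1 (Sum.inl (Sum.inr j)))))
              (fun t => p.2.1 (Sum.inr t)) :
                  (Fin (k + e) ⊕ Fin (k + e)) ⊕ Fin 2 → F)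
              (Sum.inl (Sum.inr (Fin.castAdd e i))) = 0 := by
            intro i
            simp
          refine ⟨?_, hz⟩
          rw [hQ _ hz]
          have h := p.2.2
          simpa [Cfsg.quadFormMinus] using h⟩
      left_inv := fun v => by
        apply Subtype.ext
        funext t
        rcases t with (t | t) | t
        · refine Fin.addCases (fun i => ?_) (fun j => ?_) t <;> simp
        · refine Fin.addCases (fun i => ?_) (fun j => ?_) t
          · simp [v.2.2 i]
          · simp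
        · rfl
      right_inv := fun p => by
        refine Prod.ext ?_ (Subtype.ext ?_)
        · funext i
          simp
        · funext t
          rcases t with (t | t) | t <;> simp }
  rw [Nat.card_congr e1, Nat.card_prod, Nat.card_fun, Nat.card_fin,
    Nat.card_eq_fintype_card (α := F)]

end stdMinus

section mainMinus

variable {F : Type u} [Field F] [Fintype F]

/-- Witt: the standard tuple is carried to any totally singular tuple by an isometry. -/
theorem exists_isometryM (k e : ℕ) (a b : F)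
    (hab : ∀ z₁ z₂ : F, z₁ ^ 2 + a * z₁ * z₂ + b * z₂ ^ 2 = 0 → z₁ = 0 ∧ z₂ = 0)
    (x : Fin k → ((Fin (k + e) ⊕ Fin (k + e)) ⊕ Fin 2 → F))
    (hx : x ∈ tsTuples F (⇑(minusQF (k + e) F a b)) k) :
    ∃ g : ((Fin (k + e) ⊕ Fin (k + e)) ⊕ Fin 2 → F) ≃ₗ[F]
        ((Fin (k + e) ⊕ Fin (k + e)) ⊕ Fin 2 → F),
      (∀ v, minusQF (k + e) F a b (g v) = minusQF (k + e) F a b v) ∧
      ∀ i, g (stdTupleM F k e i) = x i := by
  have hx0 : stdTupleM F k e ∈ tsTuples F (⇑(minusQF (k + e) F a b)) k := by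
    rw [minusQF_coe]
    exact stdTupleM_mem k e a b
  obtain ⟨g, hg, hgφ⟩ := Cfsg.Agent.S0750.result (minusQF (k + e) F a b)
    (Cfsg.Agent.Lib.Helper44.minusQF_nondegenerate_all (k + e) F a b hab) _ _
    ((Basis.span hx0.1).equiv (Basis.span hx.1) (Equiv.refl _))
    (fun w => by
      rw [hx.2 _ (((Basis.span hx0.1).equiv (Basis.span hx.1) (Equiv.refl _)) w).2,
        hx0.2 _ w.2])
  refine ⟨g, hg, fun i => ?_⟩
  have h1 := hgφ (Basis.span hx0.1 i)
  rw [Basis.equiv_apply] at h1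
  simpa [Basis.span_apply] using h1

theorem card_fiberM (n k : ℕ) (hk : k ≤ n) (a b : F)
    (hab : ∀ z₁ z₂ : F, z₁ ^ 2 + a * z₁ * z₂ + b * z₂ ^ 2 = 0 → z₁ = 0 ∧ z₂ = 0)
    (x : Fin k → ((Fin n ⊕ Fin n) ⊕ Fin 2 → F))
    (hx : x ∈ tsTuples F (⇑(minusQF n F a b)) k) :
    Nat.card {v : (Fin n ⊕ Fin n) ⊕ Fin 2 → F // minusQF n F a b v = 0 ∧
        (∀ i, QuadraticMap.polar (minusQF n F a b) (x i) v = 0) ∧
        v ∉ Submodule.span F (Set.range x)} =
      Fintype.card F ^ k *
        Nat.card {w : (Fin (n - k) ⊕ Fin (n - k)) ⊕ Fin 2 → F //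
          Cfsg.quadFormMinus (n - k) F a b w = 0} -
        Fintype.card F ^ k := by
  classical
  obtain ⟨e, rfl⟩ := Nat.exists_eq_add_of_le hk
  have hde : k + e - k = e := by omega
  rw [hde]
  obtain ⟨g, hg, hgx⟩ := exists_isometryM k e a b hab x hx
  have hA : Nat.card {v : (Fin (k + e) ⊕ Fin (k + e)) ⊕ Fin 2 → F //
        minusQF (k + e) F a b v = 0 ∧
        (∀ i, QuadraticMap.polar (minusQF (k + e) F a b) (x i) v = 0)} =
      Fintype.card F ^ k *
        Nat.card {w : (Fin e ⊕ Fin e) ⊕ Fin 2 → F // Cfsg.quadFormMinus e F a b w = 0} := by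
    have e1 : {v : (Fin (k + e) ⊕ Fin (k + e)) ⊕ Fin 2 → F //
        Cfsg.quadFormMinus (k + e) F a b v = 0 ∧
          ∀ i : Fin k, v (Sum.inl (Sum.inr (Fin.castAdd e i))) = 0} ≃
        {v : (Fin (k + e) ⊕ Fin (k + e)) ⊕ Fin 2 → F // minusQF (k + e) F a b v = 0 ∧
        (∀ i, QuadraticMap.polar (minusQF (k + e) F a b) (x i) v = 0)} :=
      Equiv.subtypeEquiv g.toEquiv (fun v => by
        have hpol : ∀ i, QuadraticMap.polar (minusQF (k + e) F a b) (x i) (g v) =
            v (Sum.inl (Sum.inr (Fin.castAdd e i))) := by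
          intro i
          rw [← hgx i, QuadraticMap.polar, ← map_add, hg, hg, hg, ← QuadraticMap.polar,
            minusQF_coe]
          exact minus_polar_inl (k + e) F a b _ v
        have hq : minusQF (k + e) F a b (g v) = Cfsg.quadFormMinus (k + e) F a b v := by
          rw [hg, minusQF_coe]
        show _ ↔ minusQF (k + e) F a b (g v) = 0 ∧
          ∀ i, QuadraticMap.polar (minusQF (k + e) F a b) (x i) (g v) = 0
        simp only [hq, hpol])
    rw [← Nat.card_congr e1, card_stdM]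
  have hle : ((Submodule.span F (Set.range x) : Submodule F _) : Set _) ⊆
      {v | minusQF (k + e) F a b v = 0 ∧
        ∀ i, QuadraticMap.polar (minusQF (k + e) F a b) (x i) v = 0} := by
    intro v hv
    have hv' : v ∈ Submodule.span F (Set.range x) := hv
    refine ⟨hx.2 v hv', fun i => ?_⟩
    have hi : x i ∈ Submodule.span F (Set.range x) := Submodule.subset_span ⟨i, rfl⟩
    rw [QuadraticMap.polar, hx.2 _ (Submodule.add_mem _ hi hv'), hx.2 _ hi, hx.2 _ hv']
    simp
  have hfU : finrank F (Submodule.span F (Set.range x)) = k := by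
    rw [finrank_span_eq_card hx.1, Fintype.card_fin]
  have hcU : Nat.card (Submodule.span F (Set.range x)) = Fintype.card F ^ k := by
    rw [Nat.card_eq_fintype_card, Module.card_eq_pow_finrank (K := F), hfU]
  have hset : {v | minusQF (k + e) F a b v = 0 ∧
        (∀ i, QuadraticMap.polar (minusQF (k + e) F a b) (x i) v = 0) ∧
        v ∉ Submodule.span F (Set.range x)} =
      {v | minusQF (k + e) F a b v = 0 ∧
        ∀ i, QuadraticMap.polar (minusQF (k + e) F a b) (x i) v = 0} \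
        ((Submodule.span F (Set.range x) : Submodule F _) : Set _) := by
    ext v
    simp only [Set.mem_ofPred_eq, Set.mem_sdiff, SetLike.mem_coe, and_assoc]
  have h1 : Nat.card {v : (Fin (k + e) ⊕ Fin (k + e)) ⊕ Fin 2 → F //
        minusQF (k + e) F a b v = 0 ∧
        (∀ i, QuadraticMap.polar (minusQF (k + e) F a b) (x i) v = 0) ∧
        v ∉ Submodule.span F (Set.range x)} =
      ({v | minusQF (k + e) F a b v = 0 ∧
        (∀ i, QuadraticMap.polar (minusQF (k + e) F a b) (x i) v = 0) ∧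
        v ∉ Submodule.span F (Set.range x)}).ncard := rfl
  rw [h1, hset, Set.ncard_sdiff hle, ← hA, ← hcU]
  rfl

theorem card_tsTuplesM (n k : ℕ) (hk : k ≤ n) (a b : F)
    (hab : ∀ z₁ z₂ : F, z₁ ^ 2 + a * z₁ * z₂ + b * z₂ ^ 2 = 0 → z₁ = 0 ∧ z₂ = 0) :
    Nat.card ↥(tsTuples F (⇑(minusQF n F a b)) k) =
      ∏ i ∈ Finset.range k, (Fintype.card F ^ i *
        Nat.card {w : (Fin (n - i) ⊕ Fin (n - i)) ⊕ Fin 2 → F //
          Cfsg.quadFormMinus (n - i) F a b w = 0} -
        Fintype.card F ^ i) := by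
  classical
  induction k with
  | zero =>
    rw [Finset.prod_range_zero]
    have : Unique ↥(tsTuples F (⇑(minusQF n F a b)) 0) :=
      { default := ⟨fun i => i.elim0, linearIndependent_empty_type, fun w hw => by
          have hw0 : w = 0 := by simpa using hw
          rw [hw0, map_zero]⟩
        uniq := fun z => Subtype.ext (funext fun i => i.elim0) }
    exact Nat.card_unique
  | succ k ih =>
    have := Fintype.ofFinite ↥(tsTuples F (⇑(minusQF n F a b)) k)
    rw [Nat.card_congr (tsSuccEquiv (minusQF n F a b) k), Nat.card_sigma,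
      Finset.prod_range_succ, ← ih (by omega)]
    rw [Finset.sum_congr rfl (fun x _ => card_fiberM n k (by omega) a b hab x.1 x.2),
      Finset.sum_const, Finset.card_univ, smul_eq_mul,
      ← Nat.card_eq_fintype_card (α := ↥(tsTuples F (⇑(minusQF n F a b)) k))]

/-- Counting totally singular subspaces through their ordered bases (raw form). -/
theorem card_ts_mulM_raw (n m : ℕ) (hm : m ≤ n) (a b : F)
    (hab : ∀ z₁ z₂ : F, z₁ ^ 2 + a * z₁ * z₂ + b * z₂ ^ 2 = 0 → z₁ = 0 ∧ z₂ = 0) :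
    Nat.card {W : Submodule F ((Fin n ⊕ Fin n) ⊕ Fin 2 → F) //
        finrank F W = m ∧ ∀ w ∈ W, minusQF n F a b w = 0} *
      ∏ j : Fin m, (Fintype.card F ^ m - Fintype.card F ^ j.val) =
    ∏ i ∈ Finset.range m, (Fintype.card F ^ i *
        Nat.card {w : (Fin (n - i) ⊕ Fin (n - i)) ⊕ Fin 2 → F //
          Cfsg.quadFormMinus (n - i) F a b w = 0} -
        Fintype.card F ^ i) := by
  classical
  rw [← card_tsTuplesM n m hm a b hab]
  let φ : ↥(tsTuples F (⇑(minusQF n F a b)) m) →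
      {W : Submodule F ((Fin n ⊕ Fin n) ⊕ Fin 2 → F) //
        finrank F W = m ∧ ∀ w ∈ W, minusQF n F a b w = 0} :=
    fun s => ⟨Submodule.span F (Set.range s.1), by
      rw [finrank_span_eq_card s.2.1, Fintype.card_fin], s.2.2⟩
  rw [← Nat.card_congr (Equiv.sigmaFiberEquiv φ), Nat.card_sigma]
  have h3 : ∀ W : {W : Submodule F ((Fin n ⊕ Fin n) ⊕ Fin 2 → F) //
      finrank F W = m ∧ ∀ w ∈ W, minusQF n F a b w = 0},
      Nat.card {s : ↥(tsTuples F (⇑(minusQF n F a b)) m) // φ s = W} =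
        ∏ j : Fin m, (Fintype.card F ^ m - Fintype.card F ^ j.val) := by
    intro W
    rw [← Cfsg.Agent.Lib.Helper40.Elusive.card_fib m W.1 W.2.1]
    apply Nat.card_congr
    exact
      { toFun := fun s => ⟨⟨s.1.1, s.1.2.1⟩, congrArg Subtype.val s.2⟩
        invFun := fun s => ⟨⟨s.1.1, s.1.2, fun w hw => W.2.2 w (s.2.le hw)⟩, Subtype.ext s.2⟩
        left_inv := fun s => rfl
        right_inv := fun s => rfl }
  rw [Finset.sum_congr rfl (fun W _ => h3 W), Finset.sum_const, Finset.card_univ,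
    smul_eq_mul, Nat.card_eq_fintype_card]

theorem fibM_id (q f : ℕ) (hq : 1 ≤ q) :
    q ^ (2 * (f + 1) - 1) + q ^ (f + 1 - 1) - q ^ (f + 1) - 1 =
      (q ^ (f + 1) + 1) * (q ^ f - 1) := by
  have hA : 1 ≤ q ^ f := Nat.one_le_pow _ _ hq
  have h1 : q ^ (2 * (f + 1) - 1) = q ^ (f + 1) * q ^ f := by
    rw [← pow_add]
    congr 1
    omega
  have h2 : f + 1 - 1 = f := by omega
  rw [h1, h2]
  obtain ⟨B, hB⟩ : ∃ B, q ^ f = B + 1 := ⟨q ^ f - 1, by omega⟩
  rw [hB]
  have h3 : q ^ (f + 1) * (B + 1) + (B + 1) = (q ^ (f + 1) + 1) * B + q ^ (f + 1) + 1 := by ring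
  rw [h3, Nat.add_sub_cancel]
  omega

/-- **Count of totally singular `m`-spaces of the minus form** (all characteristics);
`n` is the Witt index. -/
theorem card_ts_mulM (n m : ℕ) (hm : m ≤ n) (a b : F)
    (hab : ∀ z₁ z₂ : F, z₁ ^ 2 + a * z₁ * z₂ + b * z₂ ^ 2 = 0 → z₁ = 0 ∧ z₂ = 0) :
    Nat.card {W : Submodule F ((Fin n ⊕ Fin n) ⊕ Fin 2 → F) //
        finrank F W = m ∧ Cfsg.Geo.IsTotallySingularQuad (Cfsg.quadFormMinus n F a b) W} *
      Cfsg.Agent.Lib.Helper40.Elusive.Q (Fintype.card F) m m =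
    ∏ j ∈ Finset.range m,
      ((Fintype.card F ^ (n - j + 1) + 1) * (Fintype.card F ^ (n - j) - 1)) := by
  have hq : 2 ≤ Fintype.card F := Fintype.one_lt_card
  have h1 := card_ts_mulM_raw (F := F) n m hm a b hab
  rw [minusQF_coe] at h1
  rw [Cfsg.Agent.Lib.Helper40.Elusive.prod_li _ _ _ le_rfl] at h1
  have h3 : ∏ i ∈ Finset.range m, (Fintype.card F ^ i *
        Nat.card {w : (Fin (n - i) ⊕ Fin (n - i)) ⊕ Fin 2 → F //
          Cfsg.quadFormMinus (n - i) F a b w = 0} -
        Fintype.card F ^ i) =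
      (∏ j ∈ Finset.range m, Fintype.card F ^ j) *
        ∏ j ∈ Finset.range m,
          ((Fintype.card F ^ (n - j + 1) + 1) * (Fintype.card F ^ (n - j) - 1)) := by
    rw [← Finset.prod_mul_distrib]
    apply Finset.prod_congr rfl
    intro j hj
    have hZ : Nat.card {w : (Fin (n - j) ⊕ Fin (n - j)) ⊕ Fin 2 → F //
          Cfsg.quadFormMinus (n - j) F a b w = 0} =
        Fintype.card F ^ (2 * (n - j + 1) - 1) + Fintype.card F ^ (n - j + 1 - 1) -
          Fintype.card F ^ (n - j + 1) :=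
      Cfsg.Agent.Lib.Helper45.card_zeros_minus rfl (n - j + 1) (by omega) a b hab
    rw [hZ, ← fibM_id _ (n - j) (by omega), Nat.mul_sub_one]
  rw [h3, ← mul_assoc, mul_comm (Nat.card _), mul_assoc] at h1
  have h4 : 0 < ∏ j ∈ Finset.range m, Fintype.card F ^ j :=
    Finset.prod_pos (fun j _ => Nat.pow_pos (by omega))
  exact Nat.eq_of_mul_eq_mul_left h4 h1

/-- The characteristic does not divide the number of totally singular `m`-spaces. -/
theorem pcountM (p : ℕ) [Fact p.Prime] [CharP F p] (n m : ℕ) (hm : m ≤ n) (a b : F)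
    (hab : ∀ z₁ z₂ : F, z₁ ^ 2 + a * z₁ * z₂ + b * z₂ ^ 2 = 0 → z₁ = 0 ∧ z₂ = 0) :
    ¬ p ∣ Nat.card {W : Submodule F ((Fin n ⊕ Fin n) ⊕ Fin 2 → F) //
        finrank F W = m ∧ Cfsg.Geo.IsTotallySingularQuad (Cfsg.quadFormMinus n F a b) W} := by
  intro h
  have hp : p.Prime := Fact.out
  have hq : 2 ≤ Fintype.card F := Fintype.one_lt_card
  have h1 : p ∣ ∏ j ∈ Finset.range m,
      ((Fintype.card F ^ (n - j + 1) + 1) * (Fintype.card F ^ (n - j) - 1)) := by
    rw [← card_ts_mulM n m hm a b hab]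
    exact Dvd.dvd.mul_right h _
  obtain ⟨j, hj, hj2⟩ := (Prime.dvd_finsetProd_iff hp.prime _).1 h1
  have hj' := Finset.mem_range.1 hj
  have hpq : p ∣ Fintype.card F := Cfsg.Agent.Lib.Helper40.Elusive.char_dvd_card p
  rcases (Nat.Prime.dvd_mul hp).1 hj2 with h5 | h5
  · have h2 : p ∣ Fintype.card F ^ (n - j + 1) := dvd_pow hpq (by omega)
    have h4 : p ∣ 1 := (Nat.dvd_add_right h2).1 h5
    exact hp.one_lt.ne' (Nat.dvd_one.1 h4)
  · have h2 : p ∣ Fintype.card F ^ (n - j) := dvd_pow hpq (by omega)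
    have h3 : 1 ≤ Fintype.card F ^ (n - j) := Nat.one_le_pow _ _ (by omega)
    have h4 : p ∣ 1 := by
      have := Nat.dvd_sub h2 h5
      rwa [Nat.sub_sub_self h3] at this
    exact hp.one_lt.ne' (Nat.dvd_one.1 h4)

/-- A prime dividing the number of totally singular `m`-spaces of the minus form. -/
theorem dvdM (r : ℕ) (hr : r.Prime) (n m : ℕ) (hm : m ≤ n) (a b : F)
    (hab : ∀ z₁ z₂ : F, z₁ ^ 2 + a * z₁ * z₂ + b * z₂ ^ 2 = 0 → z₁ = 0 ∧ z₂ = 0)
    (h : r ∣ Nat.card {W : Submodule F ((Fin n ⊕ Fin n) ⊕ Fin 2 → F) //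
        finrank F W = m ∧ Cfsg.Geo.IsTotallySingularQuad (Cfsg.quadFormMinus n F a b) W}) :
    ∃ j, j < m ∧
      (r ∣ Fintype.card F ^ (n - j + 1) + 1 ∨ r ∣ Fintype.card F ^ (n - j) - 1) := by
  have h1 : r ∣ ∏ j ∈ Finset.range m,
      ((Fintype.card F ^ (n - j + 1) + 1) * (Fintype.card F ^ (n - j) - 1)) := by
    rw [← card_ts_mulM n m hm a b hab]
    exact Dvd.dvd.mul_right h _
  obtain ⟨j, hj, hj2⟩ := (Prime.dvd_finsetProd_iff hr.prime _).1 h1
  exact ⟨j, Finset.mem_range.1 hj, (Nat.Prime.dvd_mul hr).1 hj2⟩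

end mainMinus

end Cfsg.Agent.Lib.Helper67.OTS
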