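import Mathlib
import Cfsg.Agent.Lib.Helper67.OTS.Count

/-!
# Totally singular subspaces of the plus-type quadratic form: counting (for S5973)

`N_m * ∏_{j<m} (q^(m-j) - 1) = ∏_{j<m} (q^(d-j) - 1) * (q^(d-j-1) + 1)` in every characteristic,
the characteristic does not divide `N_m` for `m < d`, and a prime dividing `N_m` divides some
`q^(d-j) - 1` or `q^(d-j-1) + 1`, `j < m`.
-/

set_option autoImplicit false

namespace Cfsg.Agent.Lib.Helper67.OTS

open Module Cfsg.Agent.Lib.Helper14

universe u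

section stdPlus

variable {F : Type u} [Field F]

/-- the standard totally singular tuple of the plus form -/
def stdTupleP (F : Type u) [Field F] (k e : ℕ) : Fin k → (Fin (k + e) ⊕ Fin (k + e) → F) :=
  fun i => Pi.single (Sum.inl (Fin.castAdd e i)) 1

theorem stdTupleP_mem (k e : ℕ) :
    stdTupleP F k e ∈ tsTuples F (Cfsg.quadFormPlus (k + e) F) k := by
  classical
  constructor
  · have h := (Pi.basisFun F (Fin (k + e) ⊕ Fin (k + e))).linearIndependent.comp
      (fun i : Fin k => (Sum.inl (Fin.castAdd e i) : Fin (k + e) ⊕ Fin (k + e)))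
      (fun i j h => by
        simpa using h)
    have h2 : stdTupleP F k e = (⇑(Pi.basisFun F (Fin (k + e) ⊕ Fin (k + e))) ∘
        fun i : Fin k => (Sum.inl (Fin.castAdd e i) : Fin (k + e) ⊕ Fin (k + e))) := by
      funext i
      simp [stdTupleP]
    rw [h2]
    exact h
  · intro w hw
    have key : ∀ j, w (Sum.inr j) = 0 := by
      induction hw using Submodule.span_induction with
      | mem a ha =>
        obtain ⟨i, rfl⟩ := ha
        simp [stdTupleP]
      | zero => simp
      | add a a' _ _ h1 h2 => simp [h1, h2]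
      | smul c a _ h1 => simp [h1]
    simp [Cfsg.quadFormPlus, key]

/-- zeros of the plus form orthogonal to the standard tuple -/
theorem card_stdP (F : Type u) [Field F] [Fintype F] (k e : ℕ) :
    Nat.card {v : Fin (k + e) ⊕ Fin (k + e) → F //
        Cfsg.quadFormPlus (k + e) F v = 0 ∧
          ∀ i : Fin k, v (Sum.inr (Fin.castAdd e i)) = 0} =
      Fintype.card F ^ k * Nat.card {w : Fin e ⊕ Fin e → F // Cfsg.quadFormPlus e F w = 0} := by
  classical
  have hQ : ∀ v : Fin (k + e) ⊕ Fin (k + e) → F,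
      (∀ i : Fin k, v (Sum.inr (Fin.castAdd e i)) = 0) →
      Cfsg.quadFormPlus (k + e) F v =
        ∑ j : Fin e, v (Sum.inl (Fin.natAdd k j)) * v (Sum.inr (Fin.natAdd k j)) := by
    intro v hv
    rw [Cfsg.quadFormPlus, Fin.sum_univ_add]
    simp [hv]
  have e1 : {v : Fin (k + e) ⊕ Fin (k + e) → F //
        Cfsg.quadFormPlus (k + e) F v = 0 ∧
          ∀ i : Fin k, v (Sum.inr (Fin.castAdd e i)) = 0} ≃
      (Fin k → F) × {w : Fin e ⊕ Fin e → F // Cfsg.quadFormPlus e F w = 0} :=
    { toFun := fun v => (fun i => v.1 (Sum.inl (Fin.castAdd e i)),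
        ⟨Sum.elim (fun j => v.1 (Sum.inl (Fin.natAdd k j)))
            (fun j => v.1 (Sum.inr (Fin.natAdd k j))), by
          have h := v.2.1
          rw [hQ v.1 v.2.2] at h
          simpa [Cfsg.quadFormPlus] using h⟩)
      invFun := fun p => ⟨Sum.elim (Fin.addCases p.1 (fun j => p.2.1 (Sum.inl j)))
            (Fin.addCases (fun _ => 0) (fun j => p.2.1 (Sum.inr j))), by
          have hz : ∀ i : Fin k, (Sum.elim (Fin.addCases p.1 (fun j => p.2.1 (Sum.inl j)))
                (Fin.addCases (fun _ => 0) (fun j => p.2.1 (Sum.inr j))) :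
                  Fin (k + e) ⊕ Fin (k + e) → F)
              (Sum.inr (Fin.castAdd e i)) = 0 := by
            intro i
            simp
          refine ⟨?_, hz⟩
          rw [hQ _ hz]
          have h := p.2.2
          simpa [Cfsg.quadFormPlus] using h⟩
      left_inv := fun v => by
        apply Subtype.ext
        funext t
        rcases t with t | t
        · refine Fin.addCases (fun i => ?_) (fun j => ?_) t <;> simp
        · refine Fin.addCases (fun i => ?_) (fun j => ?_) t
          · simp [v.2.2 i]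
          · simp
      right_inv := fun p => by
        refine Prod.ext ?_ (Subtype.ext ?_)
        · funext i
          simp
        · funext t
          rcases t with t | t <;> simp }
  rw [Nat.card_congr e1, Nat.card_prod, Nat.card_fun, Nat.card_fin,
    Nat.card_eq_fintype_card (α := F)]

end stdPlus

section mainPlus

variable {F : Type u} [Field F] [Fintype F]

/-- Witt: the standard tuple is carried to any totally singular tuple by an isometry. -/
theorem exists_isometryP (k e : ℕ)
    (x : Fin k → (Fin (k + e) ⊕ Fin (k + e) → F))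
    (hx : x ∈ tsTuples F (⇑(plusQF (k + e) F)) k) :
    ∃ g : (Fin (k + e) ⊕ Fin (k + e) → F) ≃ₗ[F] (Fin (k + e) ⊕ Fin (k + e) → F),
      (∀ v, plusQF (k + e) F (g v) = plusQF (k + e) F v) ∧
      ∀ i, g (stdTupleP F k e i) = x i := by
  have hx0 : stdTupleP F k e ∈ tsTuples F (⇑(plusQF (k + e) F)) k := by
    rw [plusQF_coe]
    exact stdTupleP_mem k e
  obtain ⟨g, hg, hgφ⟩ := Cfsg.Agent.S0750.result (plusQF (k + e) F)
    (plusQF_nondegenerate (k + e) F) _ _
    ((Basis.span hx0.1).equiv (Basis.span hx.1) (Equiv.refl _))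
    (fun w => by
      rw [hx.2 _ (((Basis.span hx0.1).equiv (Basis.span hx.1) (Equiv.refl _)) w).2,
        hx0.2 _ w.2])
  refine ⟨g, hg, fun i => ?_⟩
  have h1 := hgφ (Basis.span hx0.1 i)
  rw [Basis.equiv_apply] at h1
  simpa [Basis.span_apply] using h1

theorem card_fiberP (d k : ℕ) (hk : k ≤ d)
    (x : Fin k → (Fin d ⊕ Fin d → F))
    (hx : x ∈ tsTuples F (⇑(plusQF d F)) k) :
    Nat.card {v : Fin d ⊕ Fin d → F // plusQF d F v = 0 ∧
        (∀ i, QuadraticMap.polar (plusQF d F) (x i) v = 0) ∧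
        v ∉ Submodule.span F (Set.range x)} =
      Fintype.card F ^ k *
        Nat.card {w : Fin (d - k) ⊕ Fin (d - k) → F // Cfsg.quadFormPlus (d - k) F w = 0} -
        Fintype.card F ^ k := by
  classical
  obtain ⟨e, rfl⟩ := Nat.exists_eq_add_of_le hk
  have hde : k + e - k = e := by omega
  rw [hde]
  obtain ⟨g, hg, hgx⟩ := exists_isometryP k e x hx
  have hA : Nat.card {v : Fin (k + e) ⊕ Fin (k + e) → F // plusQF (k + e) F v = 0 ∧
        (∀ i, QuadraticMap.polar (plusQF (k + e) F) (x i) v = 0)} =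
      Fintype.card F ^ k *
        Nat.card {w : Fin e ⊕ Fin e → F // Cfsg.quadFormPlus e F w = 0} := by
    have e1 : {v : Fin (k + e) ⊕ Fin (k + e) → F //
        Cfsg.quadFormPlus (k + e) F v = 0 ∧
          ∀ i : Fin k, v (Sum.inr (Fin.castAdd e i)) = 0} ≃
        {v : Fin (k + e) ⊕ Fin (k + e) → F // plusQF (k + e) F v = 0 ∧
        (∀ i, QuadraticMap.polar (plusQF (k + e) F) (x i) v = 0)} :=
      Equiv.subtypeEquiv g.toEquiv (fun v => by
        have hpol : ∀ i, QuadraticMap.polar (plusQF (k + e) F) (x i) (g v) =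
            v (Sum.inr (Fin.castAdd e i)) := by
          intro i
          rw [← hgx i, QuadraticMap.polar, ← map_add, hg, hg, hg, ← QuadraticMap.polar,
            plusQF_coe]
          exact plus_polar_inl (k + e) F _ v
        have hq : plusQF (k + e) F (g v) = Cfsg.quadFormPlus (k + e) F v := by
          rw [hg, plusQF_coe]
        show _ ↔ plusQF (k + e) F (g v) = 0 ∧
          ∀ i, QuadraticMap.polar (plusQF (k + e) F) (x i) (g v) = 0
        simp only [hq, hpol])
    rw [← Nat.card_congr e1, card_stdP]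
  have hle : ((Submodule.span F (Set.range x) : Submodule F _) : Set _) ⊆
      {v | plusQF (k + e) F v = 0 ∧
        ∀ i, QuadraticMap.polar (plusQF (k + e) F) (x i) v = 0} := by
    intro v hv
    have hv' : v ∈ Submodule.span F (Set.range x) := hv
    refine ⟨hx.2 v hv', fun i => ?_⟩
    have hi : x i ∈ Submodule.span F (Set.range x) := Submodule.subset_span ⟨i, rfl⟩
    rw [QuadraticMap.polar, hx.2 _ (Submodule.add_mem _ hi hv'), hx.2 _ hi, hx.2 _ hv']
    simp
  have hfU : finrank F (Submodule.span F (Set.range x)) = k := by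
    rw [finrank_span_eq_card hx.1, Fintype.card_fin]
  have hcU : Nat.card (Submodule.span F (Set.range x)) = Fintype.card F ^ k := by
    rw [Nat.card_eq_fintype_card, Module.card_eq_pow_finrank (K := F), hfU]
  have hset : {v | plusQF (k + e) F v = 0 ∧
        (∀ i, QuadraticMap.polar (plusQF (k + e) F) (x i) v = 0) ∧
        v ∉ Submodule.span F (Set.range x)} =
      {v | plusQF (k + e) F v = 0 ∧
        ∀ i, QuadraticMap.polar (plusQF (k + e) F) (x i) v = 0} \
        ((Submodule.span F (Set.range x) : Submodule F _) : Set _) := by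
    ext v
    simp only [Set.mem_ofPred_eq, Set.mem_sdiff, SetLike.mem_coe, and_assoc]
  have h1 : Nat.card {v : Fin (k + e) ⊕ Fin (k + e) → F // plusQF (k + e) F v = 0 ∧
        (∀ i, QuadraticMap.polar (plusQF (k + e) F) (x i) v = 0) ∧
        v ∉ Submodule.span F (Set.range x)} =
      ({v | plusQF (k + e) F v = 0 ∧
        (∀ i, QuadraticMap.polar (plusQF (k + e) F) (x i) v = 0) ∧
        v ∉ Submodule.span F (Set.range x)}).ncard := rfl
  rw [h1, hset, Set.ncard_sdiff hle, ← hA, ← hcU]
  rfl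

theorem card_tsTuplesP (d k : ℕ) (hk : k ≤ d) :
    Nat.card ↥(tsTuples F (⇑(plusQF d F)) k) =
      ∏ i ∈ Finset.range k, (Fintype.card F ^ i *
        Nat.card {w : Fin (d - i) ⊕ Fin (d - i) → F // Cfsg.quadFormPlus (d - i) F w = 0} -
        Fintype.card F ^ i) := by
  classical
  induction k with
  | zero =>
    rw [Finset.prod_range_zero]
    have : Unique ↥(tsTuples F (⇑(plusQF d F)) 0) :=
      { default := ⟨fun i => i.elim0, linearIndependent_empty_type, fun w hw => by
          have hw0 : w = 0 := by simpa using hw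
          rw [hw0, map_zero]⟩
        uniq := fun z => Subtype.ext (funext fun i => i.elim0) }
    exact Nat.card_unique
  | succ k ih =>
    have := Fintype.ofFinite ↥(tsTuples F (⇑(plusQF d F)) k)
    rw [Nat.card_congr (tsSuccEquiv (plusQF d F) k), Nat.card_sigma, Finset.prod_range_succ,
      ← ih (by omega)]
    rw [Finset.sum_congr rfl (fun x _ => card_fiberP d k (by omega) x.1 x.2),
      Finset.sum_const, Finset.card_univ, smul_eq_mul,
      ← Nat.card_eq_fintype_card (α := ↥(tsTuples F (⇑(plusQF d F)) k))]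

/-- Counting totally singular subspaces through their ordered bases (raw form). -/
theorem card_ts_mulP_raw (d m : ℕ) (hm : m ≤ d) :
    Nat.card {W : Submodule F (Fin d ⊕ Fin d → F) //
        finrank F W = m ∧ ∀ w ∈ W, plusQF d F w = 0} *
      ∏ j : Fin m, (Fintype.card F ^ m - Fintype.card F ^ j.val) =
    ∏ i ∈ Finset.range m, (Fintype.card F ^ i *
        Nat.card {w : Fin (d - i) ⊕ Fin (d - i) → F // Cfsg.quadFormPlus (d - i) F w = 0} -
        Fintype.card F ^ i) := by
  classical
  rw [← card_tsTuplesP d m hm]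
  let φ : ↥(tsTuples F (⇑(plusQF d F)) m) → {W : Submodule F (Fin d ⊕ Fin d → F) //
      finrank F W = m ∧ ∀ w ∈ W, plusQF d F w = 0} :=
    fun s => ⟨Submodule.span F (Set.range s.1), by
      rw [finrank_span_eq_card s.2.1, Fintype.card_fin], s.2.2⟩
  rw [← Nat.card_congr (Equiv.sigmaFiberEquiv φ), Nat.card_sigma]
  have h3 : ∀ W : {W : Submodule F (Fin d ⊕ Fin d → F) //
      finrank F W = m ∧ ∀ w ∈ W, plusQF d F w = 0},
      Nat.card {s : ↥(tsTuples F (⇑(plusQF d F)) m) // φ s = W} =
        ∏ j : Fin m, (Fintype.card F ^ m - Fintype.card F ^ j.val) := by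
    intro W
    rw [← Cfsg.Agent.Lib.Helper40.Elusive.card_fib m W.1 W.2.1]
    apply Nat.card_congr
    exact
      { toFun := fun s => ⟨⟨s.1.1, s.1.2.1⟩, congrArg Subtype.val s.2⟩
        invFun := fun s => ⟨⟨s.1.1, s.1.2, fun w hw => W.2.2 w (s.2.le hw)⟩, Subtype.ext s.2⟩
        left_inv := fun s => rfl
        right_inv := fun s => rfl }
  rw [Finset.sum_congr rfl (fun W _ => h3 W), Finset.sum_const, Finset.card_univ,
    smul_eq_mul, Nat.card_eq_fintype_card]

theorem fibP_id (q f : ℕ) (hq : 1 ≤ q) :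
    q ^ (2 * (f + 1) - 1) + q ^ (f + 1) - q ^ (f + 1 - 1) - 1 =
      (q ^ (f + 1) - 1) * (q ^ (f + 1 - 1) + 1) := by
  have hA : 1 ≤ q ^ f := Nat.one_le_pow _ _ hq
  have hX : 1 ≤ q ^ (f + 1) := Nat.one_le_pow _ _ hq
  have h1 : q ^ (2 * (f + 1) - 1) = q ^ (f + 1) * q ^ f := by
    rw [← pow_add]
    congr 1
    omega
  have h2 : f + 1 - 1 = f := by omega
  rw [h1, h2]
  obtain ⟨Y, hY⟩ : ∃ Y, q ^ (f + 1) = Y + 1 := ⟨q ^ (f + 1) - 1, by omega⟩
  rw [hY]
  have h3 : (Y + 1) * q ^ f + (Y + 1) = Y * (q ^ f + 1) + q ^ f + 1 := by ring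
  rw [h3, Nat.add_sub_cancel]
  omega

/-- **Count of totally singular `m`-spaces of the plus form** (all characteristics). -/
theorem card_ts_mulP (d m : ℕ) (hm : m ≤ d) :
    Nat.card {W : Submodule F (Fin d ⊕ Fin d → F) //
        finrank F W = m ∧ ∀ w ∈ W, Cfsg.quadFormPlus d F w = 0} *
      Cfsg.Agent.Lib.Helper40.Elusive.Q (Fintype.card F) m m =
    ∏ j ∈ Finset.range m, ((Fintype.card F ^ (d - j) - 1) * (Fintype.card F ^ (d - j - 1) + 1)) := by
  have hq : 2 ≤ Fintype.card F := Fintype.one_lt_card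
  have h1 := card_ts_mulP_raw (F := F) d m hm
  rw [plusQF_coe] at h1
  rw [Cfsg.Agent.Lib.Helper40.Elusive.prod_li _ _ _ le_rfl] at h1
  have h3 : ∏ i ∈ Finset.range m, (Fintype.card F ^ i *
        Nat.card {w : Fin (d - i) ⊕ Fin (d - i) → F // Cfsg.quadFormPlus (d - i) F w = 0} -
        Fintype.card F ^ i) =
      (∏ j ∈ Finset.range m, Fintype.card F ^ j) *
        ∏ j ∈ Finset.range m,
          ((Fintype.card F ^ (d - j) - 1) * (Fintype.card F ^ (d - j - 1) + 1)) := by
    rw [← Finset.prod_mul_distrib]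
    apply Finset.prod_congr rfl
    intro j hj
    have hj' := Finset.mem_range.1 hj
    obtain ⟨f, hf⟩ : ∃ f, d - j = f + 1 := ⟨d - j - 1, by omega⟩
    rw [Cfsg.Agent.Lib.Helper45.card_zeros_plus rfl (d - j) (by omega), hf,
      ← fibP_id _ f (by omega), Nat.mul_sub_one]
  rw [h3, ← mul_assoc, mul_comm (Nat.card _), mul_assoc] at h1
  have h4 : 0 < ∏ j ∈ Finset.range m, Fintype.card F ^ j :=
    Finset.prod_pos (fun j _ => Nat.pow_pos (by omega))
  exact Nat.eq_of_mul_eq_mul_left h4 h1

/-- The characteristic does not divide the number of totally singular `m`-spaces, `m < d`. -/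
theorem pcountP (p : ℕ) [Fact p.Prime] [CharP F p] (d m : ℕ) (hm : m < d) :
    ¬ p ∣ Nat.card {W : Submodule F (Fin d ⊕ Fin d → F) //
        finrank F W = m ∧ ∀ w ∈ W, Cfsg.quadFormPlus d F w = 0} := by
  intro h
  have hp : p.Prime := Fact.out
  have hq : 2 ≤ Fintype.card F := Fintype.one_lt_card
  have h1 : p ∣ ∏ j ∈ Finset.range m,
      ((Fintype.card F ^ (d - j) - 1) * (Fintype.card F ^ (d - j - 1) + 1)) := by
    rw [← card_ts_mulP d m hm.le]
    exact Dvd.dvd.mul_right h _
  obtain ⟨j, hj, hj2⟩ := (Prime.dvd_finsetProd_iff hp.prime _).1 h1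
  have hj' := Finset.mem_range.1 hj
  have hpq : p ∣ Fintype.card F := Cfsg.Agent.Lib.Helper40.Elusive.char_dvd_card p
  rcases (Nat.Prime.dvd_mul hp).1 hj2 with h5 | h5
  · have h2 : p ∣ Fintype.card F ^ (d - j) := dvd_pow hpq (by omega)
    have h3 : 1 ≤ Fintype.card F ^ (d - j) := Nat.one_le_pow _ _ (by omega)
    have h4 : p ∣ 1 := by
      have := Nat.dvd_sub h2 h5
      rwa [Nat.sub_sub_self h3] at this
    exact hp.one_lt.ne' (Nat.dvd_one.1 h4)
  · have h2 : p ∣ Fintype.card F ^ (d - j - 1) := dvd_pow hpq (by omega)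
    have h4 : p ∣ 1 := (Nat.dvd_add_right h2).1 h5
    exact hp.one_lt.ne' (Nat.dvd_one.1 h4)

/-- A prime dividing the number of totally singular `m`-spaces of the plus form. -/
theorem dvdP (r : ℕ) (hr : r.Prime) (d m : ℕ) (hm : m ≤ d)
    (h : r ∣ Nat.card {W : Submodule F (Fin d ⊕ Fin d → F) //
        finrank F W = m ∧ ∀ w ∈ W, Cfsg.quadFormPlus d F w = 0}) :
    ∃ j, j < m ∧ (r ∣ Fintype.card F ^ (d - j) - 1 ∨ r ∣ Fintype.card F ^ (d - j - 1) + 1) := by
  have h1 : r ∣ ∏ j ∈ Finset.range m,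
      ((Fintype.card F ^ (d - j) - 1) * (Fintype.card F ^ (d - j - 1) + 1)) := by
    rw [← card_ts_mulP d m hm]
    exact Dvd.dvd.mul_right h _
  obtain ⟨j, hj, hj2⟩ := (Prime.dvd_finsetProd_iff hr.prime _).1 h1
  exact ⟨j, Finset.mem_range.1 hj, (Nat.Prime.dvd_mul hr).1 hj2⟩

end mainPlus

end Cfsg.Agent.Lib.Helper67.OTS
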